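import Cfsg.Agent.Lib.SuzR.Idx

/-!
# Comparison of a rank 3 action on 1782 points with the model
-/

set_option autoImplicit false

namespace Cfsg.Lib.SuzR

open MulAction

variable {S G H X Ω : Type*} [Group S] [Group G] [Group H] [MulAction S X] [MulAction H X] [MulAction G Ω]
  [MulAction H Ω]

theorem R3.change {a b c b' c' : Ω} (R : R3 G H a b c) (hb : b' ∈ orbit H b) (hc : c' ∈ orbit H c) :
    R3 G H a b' c' :=
  { R with hb := by rw [orbit_eq_iff.2 hb, R.hb], hc := by rw [orbit_eq_iff.2 hc, R.hc] }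

theorem inv_pull {u : X} {v : Ω} {T' : Set X} {T : Set Ω} (h1 : T' ⊆ orbit H u) (h2 : ∀ h : H, h • u ∈ T' ↔ h • v ∈ T)
    {K : Subgroup H} (hT : Inv K T) : Inv K T' := fun g hg y hy => by
  obtain ⟨h, rfl⟩ : ∃ h : H, h • u = y := h1 hy
  rw [← mul_smul, h2, mul_smul]
  exact hT g hg _ ((h2 h).1 hy)

theorem R3.inv_nbr {a b c : Ω} (R : R3 G H a b c) (x v : Ω) :
    Inv (stabilizer H x) {y | y ∈ orbit H v ∧ Adj G a b x y} := fun g hg y hy =>
  ⟨smul_mem_orbit_iff.2 hy.1, by rw [← mem_stabilizer_iff.1 hg]; exact (R.adjH g).2 hy.2⟩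

theorem arith2 {m i j l : ℕ} (d : m ∣ 45) (n : m - 1 = i + j + l) (n1 : m ≠ 1) (hi : i ≤ 20) (d1 : 20 ∣ m * i)
    (d2 : 320 ∣ m * j) (d3 : 1024 ∣ m * l) : m = 5 ∧ i ≠ 0 := by
  have := Nat.le_of_dvd (by decide) d
  interval_cases m <;> omega

theorem R3.vec_ne {a b c : Ω} (R : R3 G H a b c) (i j : Fin 3) (g : H) (n : i ≠ j) :
    g • ![a, b, c] i ≠ ![a, b, c] j := fun e => by
  have p1 : ∀ g : H, g • a ≠ b := fun g e => R.ab (by rw [← R.fix g, e]; exact mem_orbit_self b)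
  have p2 : ∀ g : H, g • a ≠ c := fun g e => R.ac (by rw [← R.fix g, e]; exact mem_orbit_self c)
  have p3 : ∀ g : H, g • b ≠ c := fun g e => Set.disjoint_left.1 R.disj ⟨g, e⟩ (mem_orbit_self c)
  fin_cases i <;> fin_cases j
  exacts [n rfl, p1 g e, p2 g e, p1 g⁻¹ (inv_smul_eq_iff.2 e.symm), n rfl, p3 g e,
    p2 g⁻¹ (inv_smul_eq_iff.2 e.symm), p3 g⁻¹ (inv_smul_eq_iff.2 e.symm), n rfl]

theorem R3.vec_cov {a b c : Ω} (R : R3 G H a b c) (x : Ω) : ∃ i : Fin 3, ∃ h : H, h • ![a, b, c] i = x := by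
  rcases R.tri x with rfl | e | e
  exacts [⟨0, 1, one_smul _ _⟩, ⟨1, e⟩, ⟨2, e⟩]

theorem R3.flip {a b c : Ω} (R : R3 G H a b c) (h : H) (x y : Ω) :
    Adj G a b x (h • y) ↔ Adj G a b y (h⁻¹ • x) := by
  rw [R.comm, ← R.adjH h⁻¹, inv_smul_smul]

namespace Mdl

variable {a b c y1 y2 z1 z2 w1 w2 w3 : X} (M : Mdl S H a b c y1 y2 z1 z2 w1 w2 w3) {a' b' c' : Ω}
  (R : R3 G H a' b' c')
include M R

theorem exists_b : ∃ b'' ∈ orbit H b', stabilizer H b = stabilizer H b'' := by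
  have := R.fin
  have := M.finH
  obtain ⟨x, hx, h5⟩ := Inv.exists_not_dvd (K := stabilizer H b) (L := orbit H b') (p := 5)
    (fun g _ y hy => smul_mem_orbit_iff.2 hy) (by rw [R.hb]; decide)
  have e := card_stab (H := H) x
  rw [orbit_eq_iff.2 hx, R.hb, M.card] at e
  have e' : Nat.card (stabilizer H x) = 604800 := by omega
  rw [ncard_orb_swap (M.card_b.trans e'.symm)] at h5
  exact ⟨x, hx, (Subgroup.eq_of_le_of_card_ge (M.le_stab_b e' h5) (M.card_b.trans e'.symm).le).symm⟩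

variable (eb : stabilizer H b = stabilizer H b')
include eb

theorem lam : {y | y ∈ orbit H b' ∧ Adj G a' b' c' y}.ncard = 96 ∧
    ∀ h : H, Adj S a b b (h • b) ↔ Adj G a' b' b' (h • b') := by
  have := M.R.fin
  obtain ⟨T, h1, h2, h3⟩ := exists_pull eb (T := {y | y ∈ orbit H b' ∧ Adj G a' b' b' y}) fun _ h => h.1
  have i : Inv (stabilizer H b) T := inv_pull h1 h3 (eb ▸ R.inv_nbr b' b')
  have s : T ⊆ orbit (stabilizer H b) y1 ∪ orbit (stabilizer H b) y2 := fun y hy =>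
    (M.oy y (h1 hy)).resolve_left fun e => R.irr b' (by simpa using ((h3 1).1 (by rwa [one_smul, ← e])).2)
  have d := M.ny1.trans_ne ((by decide : 100 ≠ 315).trans_eq M.ny2.symm)
  have n := ncard_two s (disj_orb d)
  have p1 := i.ncard_inter_orb y1
  have p2 := i.ncard_inter_orb y2
  have q1 := R.val_b
  have q2 := R.edges
  have q3 := R.conn
  rw [M.ny1] at p1
  rw [M.ny2] at p2
  have e := i.eq_two s (by rw [M.ny1]; omega) d
  refine ⟨by omega, fun h => ?_⟩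
  refine Iff.trans ?_ ((h3 h).trans (and_iff_right (mem_orbit b' h)))
  rw [e]
  refine ⟨fun k => ?_, fun k => (M.adj_orb k).2 M.ay1⟩
  rcases M.oy _ (mem_orbit b h) with e | e | e
  exacts [absurd (by rwa [e] at k) (M.R.irr b), e, absurd ((M.adj_orb e).1 k) M.ay2]

theorem trans_mu {x u v : Ω} (hx : x ∈ orbit H c') (hu : u ∈ orbit H b') (hv : v ∈ orbit H b')
    (h1 : Adj G a' b' x u) (h2 : Adj G a' b' x v) : ∃ h : H, h • x = x ∧ h • u = v := by
  refine R.transfer (fun u hu v hv w hw n1 n2 n3 n4 => ?_) hx hu hv h1 h2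
  obtain ⟨h, rfl⟩ : ∃ h : H, h • b' = u := hu
  have k : ∀ {v}, v ∈ orbit H b' → v ≠ h • b' → ¬ Adj G a' b' (h • b') v →
      ∃ g : H, h • g • b' = v ∧ g • b ∈ orbit (stabilizer H b) y2 := fun {v} ⟨g, hg⟩ n n' => by
    have e : h • (h⁻¹ * g) • b' = v := by rw [mul_smul, smul_inv_smul]; exact hg
    refine ⟨_, e, ?_⟩
    rcases M.oy _ (mem_orbit b (h⁻¹ * g)) with q | q | q
    · exact absurd (by rw [← e, mem_stabilizer_iff.1 (eb.le q)]) n
    · exact absurd (by rw [← e, R.adjH, ← (M.lam R eb).2]; exact (M.adj_orb q).2 M.ay1) n'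
    · exact q
  obtain ⟨g, rfl, p⟩ := k hv n1 n3
  obtain ⟨g', rfl, p'⟩ := k hw n2 n4
  obtain ⟨j, hj, e⟩ := mem_orb.1 ((orbit_eq_iff.2 p).ge p')
  refine ⟨h * j * h⁻¹, ?_, ?_⟩
  · rw [mul_smul, inv_smul_smul, mul_smul, mem_stabilizer_iff.1 (eb.le hj)]
  · rw [mul_smul, inv_smul_smul, mul_smul, ← mul_smul j, (smul_eq_iff_of_stab eb _ g').1 (by rwa [mul_smul])]

omit R eb in
theorem nbr_c : {y | y ∈ orbit H b ∧ Adj S a b c y} = orbit (stabilizer H c) z1 :=
  have := M.R.fin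
  (M.R.inv_nbr c b).eq_two (fun y hy => M.oz y hy.1) ((M.lam M.R rfl).1.trans M.nz1.symm)
    (by rw [M.nz1, M.nz2]; decide)

theorem le_stab_c (h2 : ¬ 2 ∣ (orbit (stabilizer H c') c).ncard) : stabilizer H c' ≤ stabilizer H c := by
  have := M.R.fin
  have := M.finH
  have e := card_stab (H := H) c'
  rw [R.hc, M.card] at e
  have hP : Nat.card (stabilizer H c') = Nat.card (stabilizer H c) := by rw [M.card_c]; omega
  generalize hP' : stabilizer H c' = P at *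
  obtain ⟨T, t1, t2, t3⟩ := exists_pull eb (T := {y | y ∈ orbit H b' ∧ Adj G a' b' c' y}) fun _ h => h.1
  rw [(M.lam R eb).1] at t2
  have iT : Inv P T := inv_pull t1 t3 (hP' ▸ R.inv_nbr c' b')
  have sub : orbit P c ⊆ orbit H c := fun _ ⟨g, e⟩ => ⟨g, e⟩
  have i := (inv_orb P c).mono (inf_le_left : P ⊓ stabilizer H c ≤ P)
  have d1 := Inv.dvd_of_index hP Set.inter_subset_right (i.inter ((inv_orb _ w1).mono inf_le_right))
  have d2 := Inv.dvd_of_index hP Set.inter_subset_right (i.inter ((inv_orb _ w2).mono inf_le_right))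
  have d3 := Inv.dvd_of_index hP Set.inter_subset_right (i.inter ((inv_orb _ w3).mono inf_le_right))
  have d4 := Inv.dvd_of_index hP Set.inter_subset_right
    ((iT.mono inf_le_left).inter ((inv_orb _ z2).mono inf_le_right))
  have d : (orbit P c).ncard ∣ 4096 * 45 := ⟨_, (hP.trans M.card_c).symm.trans (orb_mul P c).symm⟩
  have n := ncard_three (L := orbit P c \ {c}) (fun y hy => or_assoc.2 ((M.ow y (sub hy.1)).resolve_left hy.2))
    (disj_orb (by rw [M.nw1, M.nw2]; decide)) (disj_orb (by rw [M.nw1, M.nw3]; decide))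
    (disj_orb (by rw [M.nw2, M.nw3]; decide))
  have q : ∀ {w : X}, (orbit (stabilizer H c) w).ncard ≠ 1 →
      (orbit P c \ {c}) ∩ orbit (stabilizer H c) w = orbit P c ∩ orbit (stabilizer H c) w := fun h =>
    Set.ext fun y => ⟨fun k => ⟨k.1.1, k.2⟩, fun k => ⟨⟨k.1, fun e => not_mem_orb_stab h (e ▸ k.2)⟩, k.2⟩⟩
  rw [q (by rw [M.nw1]; decide), q (by rw [M.nw2]; decide), q (by rw [M.nw3]; decide),
    Set.ncard_sdiff_singleton_of_mem (mem_orbit_self c)] at n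
  have l1 := (Set.ncard_le_ncard (Set.inter_subset_right (s := orbit P c))).trans M.nw1.le
  rw [M.nw1] at d1
  rw [M.nw2] at d2
  rw [M.nw3] at d3
  rw [M.nz2] at d4
  have d45 : (orbit P c).ncard ∣ 45 := Nat.Coprime.dvd_of_dvd_mul_left
    (Nat.Coprime.pow_right 12 ((Nat.Prime.coprime_iff_not_dvd Nat.prime_two).2 h2).symm) d
  refine le_stab_of_ncard (by_contra fun n1 => ?_)
  have n5 := arith2 d45 n n1 l1 d1 d2 d3
  have κ : ∀ x ∈ orbit P c, {y | y ∈ T ∧ Adj S a b x y}.ncard = {y | y ∈ T ∧ Adj S a b c y}.ncard := fun x hx => by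
    obtain ⟨g, hg, rfl⟩ := mem_orb.1 hx
    exact ncard_smul_eq g fun y => and_congr ⟨fun k => by simpa using iT g⁻¹ (P.inv_mem hg) _ k, iT g hg y⟩
      (M.R.adjH g)
  obtain ⟨u, hu⟩ := (Set.ncard_pos (s := T)).1 (by omega)
  have s := sum_ncard (orbit P c) T (Adj S a b) κ (l := {x | x ∈ orbit P c ∧ Adj S a b x u}.ncard) fun y hy => by
    obtain ⟨h, rfl⟩ : ∃ h : H, h • b = u := t1 hu
    obtain ⟨h', rfl⟩ : ∃ h : H, h • b = y := t1 hy
    obtain ⟨g, g1, g2⟩ := M.trans_mu R eb (mem_orbit_self c') (mem_orbit b' h) (mem_orbit b' h') ((t3 h).1 hu).2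
      ((t3 h').1 hy).2
    have hg : g ∈ P := hP'.le g1
    rw [← (smul_eq_iff_of_stab eb (g * h) h').2 (by rwa [mul_smul]), mul_smul]
    exact ncard_smul_eq g fun x => and_congr
      ⟨fun k => by simpa using inv_orb P c g⁻¹ (P.inv_mem hg) _ k, inv_orb P c g hg x⟩ (M.R.adjH g)
  have nT := ncard_two (L := T) (fun y hy => M.oz y (t1 hy)) (disj_orb (by rw [M.nz1, M.nz2]; decide))
  have eT : T ∩ orbit (stabilizer H c) z1 = {y | y ∈ T ∧ Adj S a b c y} := by
    rw [← M.nbr_c]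
    exact Set.ext fun y => ⟨fun k => ⟨k.1, k.2.2⟩, fun k => ⟨k.1, t1 k.1, k.2⟩⟩
  rw [eT, t2] at nT
  rw [n5.1] at d4 s
  rw [t2] at s
  have k96 : {y | y ∈ T ∧ Adj S a b c y}.ncard = 96 := by omega
  have all : ∀ x ∈ orbit P c, ∀ y ∈ T, Adj S a b x y := fun x hx y hy =>
    ((Set.eq_of_subset_of_ncard_le (fun _ k => k.1) (t2.trans ((κ x hx).trans k96).symm).le).ge hy).2
  have eq : T = {y | y ∈ orbit H b ∧ Adj S a b c y} :=
    Set.eq_of_subset_of_ncard_le (fun y hy => ⟨t1 hy, all c (mem_orbit_self c) y hy⟩)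
      (by rw [M.nbr_c, M.nz1, t2])
  obtain ⟨x, hx, hx'⟩ := Set.nonempty_of_ncard_ne_zero n5.2
  obtain ⟨g, hg, rfl⟩ := mem_orb.1 hx'
  obtain ⟨z, z1, z2, z3⟩ := M.sep
  exact z3 ((M.R.adjH g).1 (all _ hx _ (eq.ge (M.R.inv_nbr c b g hg z ⟨z1, z2⟩))))

theorem exists_c : ∃ c'' ∈ orbit H c', stabilizer H c = stabilizer H c'' := by
  have := R.fin
  have := M.finH
  obtain ⟨x, hx, h2⟩ := Inv.exists_not_dvd (K := stabilizer H c) (L := orbit H c') (p := 2)
    (fun g _ y hy => smul_mem_orbit_iff.2 hy) (by rw [R.hc]; decide)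
  have e := card_stab (H := H) x
  rw [orbit_eq_iff.2 hx, R.hc, M.card] at e
  have e' : Nat.card (stabilizer H c) = Nat.card (stabilizer H x) := by rw [M.card_c]; omega
  rw [ncard_orb_swap e'] at h2
  exact ⟨x, hx, (Subgroup.eq_of_le_of_card_ge (M.le_stab_c (R.change (mem_orbit_self b') hx) eb h2) e'.le).symm⟩

variable (ec : stabilizer H c = stabilizer H c')
include ec

theorem adj_cb (h : H) : h • b ∈ orbit (stabilizer H c) z1 ↔ Adj G a' b' c' (h • b') := by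
  have := M.R.fin
  obtain ⟨T, h1, h2, h3⟩ := exists_pull eb (T := {y | y ∈ orbit H b' ∧ Adj G a' b' c' y}) fun _ h => h.1
  rw [← (inv_pull h1 h3 (ec ▸ R.inv_nbr c' b')).eq_two (fun y hy => M.oz y (h1 hy))
    (by rw [h2, (M.lam R eb).1, M.nz1]) (by rw [M.nz1, M.nz2]; decide), h3]
  exact and_iff_right (mem_orbit b' h)

theorem adj_cc (h : H) : h • c ∈ orbit (stabilizer H c) w2 ↔ Adj G a' b' c' (h • c') := by
  have := M.R.fin
  obtain ⟨T, h1, h2, h3⟩ := exists_pull ec (T := {y | y ∈ orbit H c' ∧ Adj G a' b' c' y}) fun _ h => h.1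
  have i : Inv (stabilizer H c) T := inv_pull h1 h3 (ec ▸ R.inv_nbr c' c')
  have n := ncard_three (L := T) (fun y hy => or_assoc.2 ((M.ow y (h1 hy)).resolve_left fun e =>
      R.irr c' (by simpa using ((h3 1).1 (by rwa [one_smul, ← e])).2)))
    (disj_orb (by rw [M.nw1, M.nw2]; decide)) (disj_orb (by rw [M.nw1, M.nw3]; decide))
    (disj_orb (by rw [M.nw2, M.nw3]; decide))
  have p1 := i.ncard_inter_orb w1
  have p2 := i.ncard_inter_orb w2
  have p3 := i.ncard_inter_orb w3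
  have q := R.val_c
  rw [(M.lam R eb).1] at q
  rw [M.nw1] at p1
  rw [M.nw3] at p3
  have p4 := M.nw2
  have e : T ∩ orbit (stabilizer H c) w2 = T := Set.eq_of_subset_of_ncard_le Set.inter_subset_left (by omega)
  rw [← Set.eq_of_subset_of_ncard_le (Set.inter_eq_left.1 e) (by omega), h3]
  exact and_iff_right (mem_orbit c' h)

theorem exists_iso' : ∃ θ : X ≃ Ω, ∀ x y, Adj G a' b' (θ x) (θ y) ↔ Adj S a b x y := by
  obtain ⟨θ, hθ⟩ := exists_equiv (H := H) ![a, b, c] ![a', b', c'] M.R.vec_cov R.vec_cov fun i j g => by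
    by_cases n : i = j
    · subst n
      fin_cases i
      exacts [iff_of_true (M.R.fix g) (R.fix g), SetLike.ext_iff.1 eb g, SetLike.ext_iff.1 ec g]
    · exact iff_of_false (M.R.vec_ne i j g n) (R.vec_ne i j g n)
  have k00 : ∀ h : H, Adj G a' b' a' (h • a') ↔ Adj S a b a (h • a) := fun h => by
    rw [R.fix, M.R.fix]; exact iff_of_false (R.irr _) (M.R.irr _)
  have k01 : ∀ h : H, Adj G a' b' a' (h • b') ↔ Adj S a b a (h • b) := fun h =>
    iff_of_true (R.adj_a.2 (mem_orbit _ h)) (M.R.adj_a.2 (mem_orbit _ h))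
  have k02 : ∀ h : H, Adj G a' b' a' (h • c') ↔ Adj S a b a (h • c) := fun h =>
    iff_of_false (R.nadj (mem_orbit _ h)) (M.R.nadj (mem_orbit _ h))
  have k21 : ∀ h : H, Adj G a' b' c' (h • b') ↔ Adj S a b c (h • b) := fun h =>
    (M.adj_cb R eb ec h).symm.trans (M.adj_cb M.R rfl rfl h)
  have k : ∀ (i j : Fin 3) (h : H), Adj G a' b' (![a', b', c'] i) (h • ![a', b', c'] j) ↔
      Adj S a b (![a, b, c] i) (h • ![a, b, c] j) := fun i j h => by
    fin_cases i <;> fin_cases j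
    exacts [k00 h, k01 h, k02 h, (R.flip ..).trans ((k01 _).trans (M.R.flip ..).symm), ((M.lam R eb).2 h).symm,
      (R.flip ..).trans ((k21 _).trans (M.R.flip ..).symm), (R.flip ..).trans ((k02 _).trans (M.R.flip ..).symm),
      k21 h, (M.adj_cc R eb ec h).symm.trans (M.adj_cc M.R rfl rfl h)]
  refine ⟨θ, fun x y => ?_⟩
  obtain ⟨i, g, rfl⟩ := M.R.vec_cov x
  obtain ⟨j, h, e⟩ := M.R.vec_cov (g⁻¹ • y)
  rw [← smul_inv_smul g y, ← e, M.R.adjH, ← mul_smul, hθ, hθ, mul_smul, R.adjH, k]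

omit eb ec in
/-- The graph of a rank 3 action with the given stabilizer is the model graph. -/
theorem exists_iso : ∃ θ : X ≃ Ω, ∀ g : G, ∀ x y, Adj S a b (θ.symm (g • θ x)) (θ.symm (g • θ y)) ↔ Adj S a b x y := by
  obtain ⟨b'', hb, eb⟩ := M.exists_b R
  have R' := R.change hb (mem_orbit_self c')
  obtain ⟨c'', hc, ec⟩ := M.exists_c R' eb
  obtain ⟨θ, hθ⟩ := M.exists_iso' (R.change hb hc) eb ec
  exact ⟨θ, fun g x y => by rw [← hθ, θ.apply_symm_apply, θ.apply_symm_apply, adj_smul, hθ]⟩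

end Mdl

end Cfsg.Lib.SuzR
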