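import Cfsg.Agent.Lib.SuzR.Cmp
import Cfsg.Agent.Lib.Calc.SuzG2

/-!
# The graph of the sporadic Suzuki group on 1782 points: suborbits and a bound for the automorphism group
-/

set_option autoImplicit false
set_option maxRecDepth 100000

namespace Cfsg.Lib.SuzR

open MulAction Cfsg.Lib.Calc Cfsg.Lib.Calc.Suz

attribute [local instance] Calc.Suz.act

/-- Points. -/
abbrev pt (i : ℕ) : Fin 1782 := finPt 1782 i
/-- Sets of points. -/
abbrev ms (s : ℕ) : Set (Fin 1782) := maskSet 1782 (finPt 1782) s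
/-- The point stabilizer. -/
noncomputable abbrev HH : Subgroup Spor.Suz := stabilizer Spor.Suz (pt 0)
/-- Adjacency. -/
abbrev AA (x y : Fin 1782) : Prop := Adj Spor.Suz (pt 0) (pt 995) x y

theorem pt_val (x : Fin 1782) : pt x = x := Fin.ext (finPt_val _ x.2)

theorem mem_ms {s : ℕ} {x : Fin 1782} : x ∈ ms s ↔ s.testBit x = true := by
  rw [← mem_maskSet (inj_finPt 1782) x.2]; exact iff_of_eq (congrArg (· ∈ ms s) (pt_val x).symm)

theorem orb_eq {ts : List W} {r i m : ℕ} (h : net.orbOK 1782 iv ts r i m = true) :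
    orbit (genW gam ts) (pt i) = ms (net.orbM iv ts r i) ∧ (orbit (genW gam ts) (pt i)).ncard = m :=
  ⟨net_ok.orbit_eq (inj_finPt _) isLab model.acts h, net_ok.ncard_orbit (inj_finPt _) isLab model.acts h⟩

/-- Generators of the point stabilizer. -/
def t0 : List W := [.l 2, .l 3, .l 4, .l 5, .l 6]
/-- The orbit of length 416. -/
noncomputable def m1 : ℕ := net.orbM iv t0 8 995
/-- The orbit of length 1365. -/
noncomputable def m2 : ℕ := net.orbM iv t0 6 1
/-- The neighbours of the image of the base point. -/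
noncomputable def row (t : W) : ℕ := net.pre iv (.inv t) m1

theorem hh : HH = genW gam t0 := stab.symm
theorem card_hh : Nat.card HH = 251596800 :=
  (congrArg (fun K : Subgroup Spor.Suz => Nat.card K) hh).trans Calc.Suz.card_stab
theorem o1 : orbit HH (pt 995) = ms m1 ∧ (orbit HH (pt 995)).ncard = 416 := by
  rw [hh]; exact orb_eq (ts := t0) (by decide +kernel)
theorem o2 : orbit HH (pt 1) = ms m2 ∧ (orbit HH (pt 1)).ncard = 1365 := by
  rw [hh]; exact orb_eq (ts := t0) orb_1365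

theorem r3 : R3 Spor.Suz HH (pt 0) (pt 995) (pt 1) where
  fin := inferInstance
  card := by simp
  tr := fun x => (Set.eq_of_subset_of_ncard_le (Set.subset_univ (orbit Spor.Suz (pt 0)))
    (by rw [Set.ncard_univ]; exact (model.ncard_orbit.trans (by simp)).ge)).ge (Set.mem_univ x)
  sur := fun g h => ⟨⟨g, h⟩, fun _ => rfl⟩
  act := fun h => ⟨h, fun _ => rfl⟩
  fix := fun h => h.2
  hb := o1.2
  hc := o2.2

theorem adj_row {t : W} {p : ℕ} (h : net.mapOK 1782 iv t 0 p = true) (x : Fin 1782) :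
    AA (pt p) x ↔ (row t).testBit x = true := by
  have e : t.ev gam • pt 0 = pt p := model.smul_eq t 0 p h
  rw [row, net_ok.mem_pre (inj_finPt _) isLab model.acts _ _ x.2]
  change _ ↔ (t.ev gam)⁻¹ • pt x ∈ ms m1
  rw [← o1.1, ← r3.adj_a, ← adj_smul (t.ev gam) (x := pt 0), smul_inv_smul, pt_val, e]

theorem orb_stab {l : List Low} {p m : ℕ} (h : net.lowOK 1782 iv l = true)
    (f0 : net.fixAll 1782 iv 0 (lowWords l) = true) (f1 : net.fixAll 1782 iv p (lowWords l) = true)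
    (hm : (orbit HH (pt p)).ncard = m) (e : m * lowOrd l = 251596800) (x : Fin 1782) :
    orbit (stabilizer HH (pt p)) x = orbit (genW gam (lowWords l)) x := by
  have := model.finite
  have c := orb_mul HH (pt p)
  rw [hm, card_hh, ← e] at c
  have k : genW gam (lowWords l) = HH ⊓ stabilizer Spor.Suz (pt p) := Subgroup.eq_of_le_of_card_ge
    (genW_le.2 fun t ht => ⟨net_ok.fix_of_fixAll (inj_finPt _) isLab model.acts f0 t ht,
      net_ok.fix_of_fixAll (inj_finPt _) isLab model.acts f1 t ht⟩)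
    ((Nat.eq_of_mul_eq_mul_left (Nat.pos_of_ne_zero fun z => by simp [z] at e) c).trans_le
      (model.le_card h fun t ht => mem_genW gam ht))
  rw [k]
  exact Set.ext fun y => ⟨fun ⟨g, e⟩ => ⟨⟨g.1.1, g.1.2, g.2⟩, e⟩, fun ⟨g, e⟩ => ⟨⟨⟨g.1, g.2.1⟩, g.2.2⟩, e⟩⟩

/-- A stabilizer chain for the stabilizer of an edge. -/
def lJ : List Low := low.tail.tail
/-- A stabilizer chain for the stabilizer of a non-edge. -/
def lP : List Low := [
  ⟨2, [wd [1], wd [3], wd [4], wd [5], wd [6], wd [2, 1, 2, 6, 1, 2], wd [2, 3, 4, 6, 2, 3, 4, 2, 1, 2, 3, 1, 2]], 10, 1024⟩,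
  ⟨160, [wd [4], wd [5], wd [2, 1, 2, 6, 1, 2, 1], wd [3, 2, 1, 4, 3, 2, 1, 2, 3, 4, 3, 2, 6, 4, 5, 3, 2, 1]], 10, 180⟩]
/-- The orbits of the edge stabilizer. -/
noncomputable def oJ (i : ℕ) : ℕ := net.orbM iv (lowWords lJ) 8 i
/-- The orbits of the non-edge stabilizer. -/
noncomputable def oP (i : ℕ) : ℕ := net.orbM iv (lowWords lP) 8 i

theorem sJ {i m : ℕ} (h : net.orbOK 1782 iv (lowWords lJ) 8 i m = true) :
    orbit (stabilizer HH (pt 995)) (pt i) = ms (oJ i) ∧ (orbit (stabilizer HH (pt 995)) (pt i)).ncard = m := by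
  rw [orb_stab (l := lJ) (by decide +kernel) (by decide +kernel) (by decide +kernel) o1.2 rfl]
  exact orb_eq h

theorem sP {i m : ℕ} (h : net.orbOK 1782 iv (lowWords lP) 8 i m = true) :
    orbit (stabilizer HH (pt 1)) (pt i) = ms (oP i) ∧ (orbit (stabilizer HH (pt 1)) (pt i)).ncard = m := by
  rw [orb_stab (l := lP) (by decide +kernel) (by decide +kernel) (by decide +kernel) o2.2 rfl]
  exact orb_eq h

theorem mem_one {x : Fin 1782} {i : ℕ} (h : (Nat.shiftLeft 1 i).testBit x = true) : x = pt i := by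
  rw [Nat.shiftLeft_eq', Nat.one_shiftLeft, Nat.testBit_two_pow, decide_eq_true_iff] at h
  rw [h, pt_val]

/-- A word for the point 995. -/
def w995 : W := wd [6, 2, 3, 4, 3, 2, 6, 7, 2, 3, 4, 3, 2, 7]
/-- A word for the point 47. -/
def w47 : W := wd [7, 2, 3, 4, 3, 2, 7]
/-- A word for the point 81. -/
def w81 : W := wd [7, 6, 2, 3, 4, 3, 2, 7]
/-- A word for the point 16. -/
def w16 : W := wd [2, 6, 3, 2, 7]

theorem a995 (x : Fin 1782) : AA (pt 995) x ↔ (row w995).testBit x = true := adj_row (by decide +kernel) x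
theorem a47 (x : Fin 1782) : AA (pt 47) x ↔ (row w47).testBit x = true := adj_row (by decide +kernel) x
theorem a81 (x : Fin 1782) : AA (pt 81) x ↔ (row w81).testBit x = true := adj_row (by decide +kernel) x
theorem a16 (x : Fin 1782) : AA (pt 16) x ↔ (row w16).testBit x = true := adj_row (by decide +kernel) x
theorem a1 (x : Fin 1782) : AA (pt 1) x ↔ (row (wd [7])).testBit x = true := adj_row map_1365 x

theorem cnt {s m : ℕ} (h : cntOK 1782 11 s m = true) {T : Set (Fin 1782)} (e : ∀ x, x ∈ T ↔ s.testBit x = true) :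
    T.ncard = m := by
  rw [← ncard_of_cntOK (inj_finPt 1782) h]
  congr 1; ext x; exact (e x).trans mem_ms.symm

theorem mdl : Mdl Spor.Suz HH (pt 0) (pt 995) (pt 1) (pt 47) (pt 81) (pt 130) (pt 47) (pt 16) (pt 25) (pt 2) := by
  have y1 := sJ (i := 47) (m := 100) (by decide +kernel)
  have y2 := sJ (i := 81) (m := 315) (by decide +kernel)
  have z1 := sP (i := 130) (m := 96) (by decide +kernel)
  have z2 := sP (i := 47) (m := 320) (by decide +kernel)
  have w1 := sP (i := 16) (m := 20) (by decide +kernel)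
  have w2 := sP (i := 25) (m := 320) (by decide +kernel)
  have w3 := sP (i := 2) (m := 1024) (by decide +kernel)
  have e1 : m1 = Nat.shiftLeft 1 995 ||| oJ 47 ||| oJ 81 := by decide +kernel
  have e2 : m1 = oP 130 ||| oP 47 := by decide +kernel
  have e3 : m2 = Nat.shiftLeft 1 1 ||| oP 16 ||| oP 25 ||| oP 2 := by decide +kernel
  refine ⟨r3, card_hh, fun y hy => ?_, y1.2, y2.2, (a995 _).2 (by decide +kernel),
    mt (a995 _).1 (by decide +kernel),
    cnt (s := m1 &&& (row w995 &&& row w47)) (by decide +kernel) fun x => ?_,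
    cnt (s := m1 &&& (row w995 &&& row w81)) (by decide +kernel) fun x => ?_,
    cnt (s := m1 &&& row w995) (by decide +kernel) fun x => ?_, fun y hy => ?_, z1.2, z2.2,
    mt (a1 _).1 (by decide +kernel), fun y hy => ?_, w1.2, w2.2, w3.2,
    ⟨pt 130, o1.1.ge (mem_ms.2 (by decide +kernel)), (a1 _).2 (by decide +kernel), mt (a16 _).1 (by decide +kernel)⟩⟩
  · rw [o1.1, mem_ms, e1, Nat.testBit_or, Nat.testBit_or, Bool.or_eq_true, Bool.or_eq_true, or_assoc] at hy
    rw [y1.1, y2.1, mem_ms, mem_ms]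
    exact hy.imp_left mem_one
  · rw [o1.1]; exact (and_congr mem_ms (and_congr (a995 x) (a47 x))).trans (by simp)
  · rw [o1.1]; exact (and_congr mem_ms (and_congr (a995 x) (a81 x))).trans (by simp)
  · rw [o1.1]; exact (and_congr mem_ms (a995 x)).trans (by simp)
  · rw [o1.1, mem_ms, e2, Nat.testBit_or, Bool.or_eq_true] at hy
    rwa [z1.1, z2.1, mem_ms, mem_ms]
  · rw [o2.1, mem_ms, e3, Nat.testBit_or, Nat.testBit_or, Nat.testBit_or, Bool.or_eq_true, Bool.or_eq_true,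
      Bool.or_eq_true, or_assoc, or_assoc] at hy
    rw [w1.1, w2.1, w3.1, mem_ms, mem_ms, mem_ms]
    exact hy.imp_left mem_one

/-- The points with the same incidences as `p`. -/
noncomputable def pat (Ms : List ℕ) (p : ℕ) : ℕ :=
  List.rec (msk (nat_lit 1782)) (fun s _ ih => Nat.land ih (cnd (bit s p) s (Nat.xor s (msk (nat_lit 1782))))) Ms

theorem mem_pat {Ms : List ℕ} {x y : Fin 1782} (h : ∀ s ∈ Ms, s.testBit y = s.testBit x) :
    (pat Ms x).testBit y = true := by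
  have k : (msk (nat_lit 1782)).testBit y = true := by
    rw [msk_eq, Nat.testBit_two_pow_sub_one]; exact decide_eq_true y.2
  induction Ms with
  | nil => exact k
  | cons s l ih =>
    change (pat l x &&& cnd (bit s x) s (s ^^^ msk (nat_lit 1782))).testBit y = true
    have := h s List.mem_cons_self
    rw [Nat.testBit_and, ih fun t ht => h t (List.mem_cons_of_mem _ ht), bit_eq]
    cases e : s.testBit x <;> simp [this, e, k]

/-- A stabilizer chain bound for the automorphisms of the graph. -/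
noncomputable def chain (l : List (ℕ × W × ℕ)) : List ℕ → Bool :=
  List.rec (fun Ms => allBig (nat_lit 1782) fun v => Nat.beq (pat Ms v) (Nat.shiftLeft (nat_lit 1) v))
    (fun e _ ih Ms => band (band (band (net.mapOK (nat_lit 1782) iv e.2.1 (nat_lit 0) e.1) (blt e.1 (nat_lit 1782)))
      (cntOK (nat_lit 1782) (nat_lit 11) (pat Ms e.1) e.2.2))
      (forceB (row e.2.1) fun r => forceB (Nat.shiftLeft (nat_lit 1) e.1) fun u => ih (r :: u :: Ms))) l

theorem card_le_chain {l : List (ℕ × W × ℕ)} : ∀ {Ms : List ℕ} {K : Subgroup (Equiv.Perm (Fin 1782))},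
    chain l Ms = true → (∀ σ ∈ K, ∀ x y, AA (σ x) (σ y) ↔ AA x y) →
    (∀ σ ∈ K, ∀ s ∈ Ms, ∀ x, s.testBit (σ x) = s.testBit x) → Nat.card K ≤ (l.map fun e => e.2.2).prod := by
  induction l with
  | nil =>
    intro Ms K h _ hM
    have : K = ⊥ := (Subgroup.eq_bot_iff_forall K).2 fun σ hσ => Equiv.ext fun x => by
      have k := mem_pat (x := x) fun s hs => hM σ hσ s hs x
      rw [beq_iff.1 (allBig_iff.1 h x x.2)] at k
      exact (mem_one k).trans (pt_val x)
    simp [this]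
  | cons e l ih =>
    intro Ms K h hA hM
    obtain ⟨h1, h2⟩ := band_eq_true.1 h
    obtain ⟨h1, h3⟩ := band_eq_true.1 h1
    obtain ⟨h1, h4⟩ := band_eq_true.1 h1
    rw [forceB_eq, forceB_eq] at h2
    have hv : ((pt e.1 : Fin 1782) : ℕ) = e.1 := finPt_val _ (blt_iff.1 h4)
    rw [List.map_cons, List.prod_cons, ← orb_mul K (pt e.1)]
    refine Nat.mul_le_mul ?_ (ih h2 (fun σ hσ => hA σ hσ.1) fun σ hσ s hs x => ?_)
    · rw [← ncard_of_cntOK (inj_finPt 1782) h3]
      refine Set.ncard_le_ncard fun y hy => ?_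
      obtain ⟨σ, hσ, rfl⟩ := mem_orb.1 hy
      have := mem_pat (x := pt e.1) fun s hs => hM σ hσ s hs (pt e.1)
      rw [hv] at this
      exact mem_ms.2 this
    have f : σ (pt e.1) = pt e.1 := hσ.2
    rcases List.mem_cons.1 hs with rfl | hs
    · rw [Bool.eq_iff_iff, ← adj_row h1, ← adj_row h1, ← hA σ hσ.1 _ x, f]
    rcases List.mem_cons.1 hs with rfl | hs
    · change (1 <<< e.1).testBit _ = (1 <<< e.1).testBit _
      rw [Nat.one_shiftLeft, Nat.testBit_two_pow, Nat.testBit_two_pow, decide_eq_decide, ← hv, Fin.val_inj,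
        Fin.val_inj]
      exact ⟨fun k => σ.injective (f.trans k), fun k => k ▸ f.symm⟩
    · exact hM σ hσ.1 s hs x

theorem chain_ok : chain [(0, wd [0], 1782), (47, wd [7, 2, 3, 4, 3, 2, 7], 416), (79, wd [7, 5, 2, 3, 4, 3, 2, 7], 100), (125, wd [7, 4, 5, 2, 3, 4, 3, 2, 7], 36), (271, wd [7, 3, 4, 5, 2, 3, 4, 3, 1, 2, 7], 14), (995, wd [6, 2, 3, 4, 3, 2, 6, 7, 2, 3, 4, 3, 2, 7], 4), (407, wd [2, 7, 3, 4, 5, 2, 3, 4, 3, 1, 2, 7], 3), (653, wd [7, 4, 1, 2, 3, 4, 5, 2, 3, 4, 3, 2, 7], 2), (304, wd [2, 7, 3, 4, 5, 2, 3, 4, 3, 2, 7], 1), (478, wd [2, 7, 1, 2, 3, 4, 5, 3, 4, 3, 2, 7], 1), (13, wd [3, 4, 3, 2, 7], 1), (1515, wd [2, 7, 2, 1, 2, 6, 3, 4, 5, 3, 4, 2, 3, 1, 2, 7], 1), (728, wd [6, 4, 2, 3, 4, 5, 2, 3, 4, 3, 2, 1, 2, 7], 1), (256, wd [6, 7, 2, 6, 3, 4, 2, 3, 1, 2, 7], 1), (110, wd [5, 1, 2, 3, 4, 3, 1, 2, 7], 1), (32, wd [6, 2, 3, 2, 1, 2, 7], 1), (295, wd [1, 2, 3, 4, 5, 2, 3, 4, 3, 2, 7], 1), (233, wd [7, 6, 4, 2, 3, 4, 2,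 3, 1, 2, 7], 1), (97, wd [5, 2, 3, 4, 2, 3, 1, 2, 7], 1), (180, wd [2, 6, 7, 2, 3, 4, 3, 1, 2, 7], 1), (71, wd [6, 2, 3, 4, 3, 1, 2, 7], 1), (56, wd [2, 3, 4, 3, 2, 1, 2, 7], 1), (190, wd [4, 3, 4, 5, 2, 3, 4, 3, 2, 7], 1), (167, wd [2, 6, 7, 3, 4, 2, 3, 1, 2, 7], 1), (26, wd [5, 3, 4, 3, 2, 7], 1), (2, wd [2, 7], 1), (3, wd [1, 2, 7], 1)] [] = true := by
  decide +kernel

theorem card_aut_le {K : Subgroup (Equiv.Perm (Fin 1782))} (h : ∀ σ ∈ K, ∀ x y, AA (σ x) (σ y) ↔ AA x y) :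
    Nat.card K ≤ 2 * 448345497600 :=
  (card_le_chain chain_ok h (by simp)).trans (by decide +kernel)

end Cfsg.Lib.SuzR
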