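import Mathlib

/-!
# Counting lemmas for invariant subsets of a group action
-/

set_option autoImplicit false

namespace Cfsg.Lib.SuzR

open MulAction

variable {H X Y : Type*} [Group H] [MulAction H X] [MulAction H Y]

/-- `L` is invariant under `K`. -/
def Inv (K : Subgroup H) (L : Set X) : Prop := ∀ g ∈ K, ∀ y ∈ L, g • y ∈ L

theorem mem_orb {K : Subgroup H} {x y : X} : y ∈ orbit K x ↔ ∃ g ∈ K, g • x = y :=
  ⟨fun ⟨g, h⟩ => ⟨g, g.2, h⟩, fun ⟨g, hg, h⟩ => ⟨⟨g, hg⟩, h⟩⟩

theorem inv_orb (K : Subgroup H) (x : X) : Inv K (orbit K x) := fun g hg y hy => by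
  obtain ⟨h, hh, rfl⟩ := mem_orb.1 hy
  exact mem_orb.2 ⟨g * h, K.mul_mem hg hh, mul_smul _ _ _⟩

theorem Inv.orb_subset {K : Subgroup H} {L : Set X} (h : Inv K L) {y : X} (hy : y ∈ L) : orbit K y ⊆ L :=
  fun z hz => by
    obtain ⟨g, hg, rfl⟩ := mem_orb.1 hz
    exact h g hg y hy

theorem Inv.mono {K K' : Subgroup H} {L : Set X} (h : Inv K L) (hK : K' ≤ K) : Inv K' L :=
  fun g hg => h g (hK hg)

theorem Inv.inter {K : Subgroup H} {L M : Set X} (h : Inv K L) (h' : Inv K M) : Inv K (L ∩ M) :=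
  fun g hg y hy => ⟨h g hg y hy.1, h' g hg y hy.2⟩

theorem Inv.diff {K : Subgroup H} {L M : Set X} (h : Inv K L) (h' : Inv K M) : Inv K (L \ M) :=
  fun g hg y hy => ⟨h g hg y hy.1, fun k => hy.2 (by simpa using h' g⁻¹ (K.inv_mem hg) _ k)⟩

theorem Inv.dvd [Finite X] {K : Subgroup H} {d s : ℕ} : ∀ (n : ℕ) {L : Set X}, L.ncard = n → Inv K L →
    (∀ y ∈ L, d ∣ s * (orbit K y).ncard) → d ∣ s * L.ncard := by
  intro n
  induction n using Nat.strong_induction_on with
  | _ n ih =>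
    intro L hn hL h
    rcases L.eq_empty_or_nonempty with rfl | ⟨y, hy⟩
    · simp
    have hs := hL.orb_subset hy
    have e := Set.ncard_sdiff_add_ncard_of_subset hs
    have p : 0 < (orbit K y).ncard := (Set.ncard_pos).2 ⟨y, mem_orbit_self y⟩
    rw [← e, mul_add]
    exact dvd_add (ih _ (by omega) rfl (hL.diff (inv_orb K y)) fun z hz => h z hz.1) (h y hy)

theorem Inv.exists_not_dvd [Finite X] {K : Subgroup H} {L : Set X} (hL : Inv K L) {p : ℕ} (hp : ¬ p ∣ L.ncard) :
    ∃ y ∈ L, ¬ p ∣ (orbit K y).ncard := by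
  by_contra h
  push Not at h
  exact hp (by simpa using Inv.dvd (s := 1) _ rfl hL (by simpa using h))

theorem orb_mul (K : Subgroup H) (y : X) :
    (orbit K y).ncard * Nat.card (K ⊓ stabilizer H y : Subgroup H) = Nat.card K := by
  rw [← index_stabilizer, ← Subgroup.card_mul_index (stabilizer K y), mul_comm]
  congr 1
  rw [← Nat.card_congr (Subgroup.subgroupOfEquivOfLe (inf_le_left : K ⊓ stabilizer H y ≤ K)).toEquiv]
  congr 2
  ext g
  simp [Subgroup.mem_subgroupOf, mem_stabilizer_iff, Subgroup.smul_def]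

theorem Inv.card_dvd [Finite X] [Finite H] {K K' : Subgroup H} (hK : K' ≤ K) {y : X} {L : Set X}
    (hy : L ⊆ orbit K y) (hL : Inv K' L) : Nat.card K' * (orbit K y).ncard ∣ Nat.card K * L.ncard := by
  refine Inv.dvd _ rfl hL fun z hz => ?_
  rw [← orbit_eq_iff.2 (hy hz), ← orb_mul K z, ← orb_mul K' z]
  obtain ⟨m, hm⟩ := Subgroup.card_dvd_of_le (inf_le_inf_right (stabilizer H z) hK)
  exact ⟨m, by rw [hm]; ring⟩

/-- The divisibility in the form used for a subgroup `J` with an orbit of size `n`. -/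
theorem Inv.dvd_of_index [Finite X] [Finite H] {J : Subgroup H} {x y : X} (hJ : Nat.card J = Nat.card (stabilizer H x))
    {L : Set X} (hy : L ⊆ orbit (stabilizer H x) y) (hL : Inv (J ⊓ stabilizer H x) L) :
    (orbit (stabilizer H x) y).ncard ∣ (orbit J x).ncard * L.ncard := by
  have h := Inv.card_dvd inf_le_right hy hL
  rw [← hJ, ← orb_mul J x, mul_comm (orbit J x).ncard, mul_assoc] at h
  exact Nat.dvd_of_mul_dvd_mul_left Nat.card_pos h

theorem ncard_orb_swap [Finite H] {u : X} {v : Y} (h : Nat.card (stabilizer H u) = Nat.card (stabilizer H v)) :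
    (orbit (stabilizer H u) v).ncard = (orbit (stabilizer H v) u).ncard := by
  have a := orb_mul (stabilizer H u) v
  have b := orb_mul (stabilizer H v) u
  rw [inf_comm, ← h, ← a] at b
  exact (Nat.eq_of_mul_eq_mul_right Nat.card_pos b).symm

theorem le_stab_of_ncard [Finite X] {J : Subgroup H} {x : X} (h : (orbit J x).ncard = 1) : J ≤ stabilizer H x :=
  fun g hg => by
    obtain ⟨y, hy⟩ := Set.ncard_eq_one.1 h
    have a : g • x ∈ orbit J x := mem_orb.2 ⟨g, hg, rfl⟩
    have b := mem_orbit_self (M := J) x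
    rw [hy] at a b
    exact a.trans b.symm

theorem Inv.inter_orb {K : Subgroup H} {L : Set X} (h : Inv K L) (y : X) :
    L ∩ orbit K y = ∅ ∨ L ∩ orbit K y = orbit K y := by
  rcases (L ∩ orbit K y).eq_empty_or_nonempty with e | ⟨z, hz, hz'⟩
  · exact .inl e
  · exact .inr (Set.inter_eq_right.2 (orbit_eq_iff.2 hz' ▸ h.orb_subset hz))

theorem Inv.ncard_inter_orb {K : Subgroup H} {L : Set X} (h : Inv K L) (y : X) :
    (L ∩ orbit K y).ncard = 0 ∨ (L ∩ orbit K y).ncard = (orbit K y).ncard := by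
  rcases h.inter_orb y with e | e <;> simp [e]

theorem disj_orb {K : Subgroup H} {x y : X} (h : (orbit K x).ncard ≠ (orbit K y).ncard) :
    Disjoint (orbit K x) (orbit K y) :=
  Set.disjoint_left.2 fun _ a b => h (by rw [← orbit_eq_iff.2 a, orbit_eq_iff.2 b])

theorem ncard_two [Finite X] {L A B : Set X} (h : L ⊆ A ∪ B) (d : Disjoint A B) :
    L.ncard = (L ∩ A).ncard + (L ∩ B).ncard := by
  rw [← Set.ncard_union_eq (d.mono Set.inter_subset_right Set.inter_subset_right), ← Set.inter_union_distrib_left,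
    Set.inter_eq_left.2 h]

theorem ncard_three [Finite X] {L A B C : Set X} (h : L ⊆ A ∪ B ∪ C) (d : Disjoint A B) (d' : Disjoint A C)
    (d'' : Disjoint B C) : L.ncard = (L ∩ A).ncard + (L ∩ B).ncard + (L ∩ C).ncard := by
  rw [ncard_two h (Set.disjoint_union_left.2 ⟨d', d''⟩), ncard_two Set.inter_subset_right d, Set.inter_assoc,
    Set.inter_assoc, Set.inter_eq_right.2 Set.subset_union_left, Set.inter_eq_right.2 Set.subset_union_right]

/-- An invariant subset of the union of two orbits with the size of the first is the first. -/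
theorem Inv.eq_two [Finite X] {K : Subgroup H} {L : Set X} (h : Inv K L) {x y : X} (hL : L ⊆ orbit K x ∪ orbit K y)
    (e : L.ncard = (orbit K x).ncard) (n : (orbit K x).ncard ≠ (orbit K y).ncard) : L = orbit K x := by
  have a := ncard_two hL (disj_orb n)
  have p : 0 < (orbit K y).ncard := (Set.ncard_pos).2 ⟨y, mem_orbit_self y⟩
  have p' : 0 < (orbit K x).ncard := (Set.ncard_pos).2 ⟨x, mem_orbit_self x⟩
  rcases h.inter_orb x with b | b
  · rcases h.ncard_inter_orb y with c | c <;> simp [b] at a <;> omega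
  · exact (Set.eq_of_subset_of_ncard_le (Set.inter_eq_right.1 b) e.le).symm

theorem smul_eq_iff_of_stab {u : X} {v : Y} (e : stabilizer H u = stabilizer H v) (g h : H) :
    g • u = h • u ↔ g • v = h • v := by
  rw [← inv_smul_eq_iff (g := h), ← inv_smul_eq_iff (g := h), ← mul_smul, ← mul_smul,
    ← mem_stabilizer_iff, ← mem_stabilizer_iff, e]

theorem exists_pull {u : X} {v : Y} (e : stabilizer H u = stabilizer H v) {T : Set Y} (hT : T ⊆ orbit H v) :
    ∃ T' : Set X, T' ⊆ orbit H u ∧ T'.ncard = T.ncard ∧ ∀ h : H, h • u ∈ T' ↔ h • v ∈ T := by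
  refine ⟨{x | ∃ h : H, h • u = x ∧ h • v ∈ T}, fun x ⟨h, a, _⟩ => ⟨h, a⟩, ?_, fun h => ⟨fun ⟨g, a, b⟩ =>
    (smul_eq_iff_of_stab e g h).1 a ▸ b, fun b => ⟨h, rfl, b⟩⟩⟩
  refine Set.ncard_congr (fun x hx => hx.choose • v) (fun x hx => hx.choose_spec.2) (fun x y hx hy k => ?_)
    fun y hy => ?_
  · rw [← hx.choose_spec.1, ← hy.choose_spec.1]
    exact (smul_eq_iff_of_stab e _ _).2 k
  · obtain ⟨h, rfl⟩ := hT hy
    have hx : ∃ g : H, g • u = h • u ∧ g • v ∈ T := ⟨h, rfl, hy⟩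
    exact ⟨h • u, hx, (smul_eq_iff_of_stab e _ _).1 hx.choose_spec.1⟩

theorem exists_equiv {ι : Type*} (r : ι → X) (s : ι → Y) (hr : ∀ x, ∃ i, ∃ h : H, h • r i = x)
    (hs : ∀ y, ∃ i, ∃ h : H, h • s i = y) (h : ∀ i j (g : H), g • r i = r j ↔ g • s i = s j) :
    ∃ θ : X ≃ Y, ∀ i (g : H), θ (g • r i) = g • s i := by
  have k : ∀ i j (g g' : H), g • r i = g' • r j ↔ g • s i = g' • s j := fun i j g g' => by
    rw [← inv_smul_eq_iff (g := g'), ← inv_smul_eq_iff (g := g'), ← mul_smul, ← mul_smul, h]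
  choose i g hg using hr
  have e : ∀ j (a : H), g (a • r j) • s (i (a • r j)) = a • s j := fun j a => (k _ _ _ _).1 (hg _)
  refine ⟨Equiv.ofBijective (fun x => g x • s (i x)) ⟨fun x y hxy => ?_, fun y => ?_⟩, e⟩
  · rw [← hg x, ← hg y]; exact (k _ _ _ _).2 hxy
  · obtain ⟨j, a, rfl⟩ := hs y
    exact ⟨_, e j a⟩

/-- Double counting. -/
theorem sum_ncard [Finite X] [Finite Y] (A : Set X) (B : Set Y) (r : X → Y → Prop) {k l : ℕ}
    (hk : ∀ x ∈ A, {y | y ∈ B ∧ r x y}.ncard = k) (hl : ∀ y ∈ B, {x | x ∈ A ∧ r x y}.ncard = l) :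
    A.ncard * k = B.ncard * l := by
  classical
  have := Fintype.ofFinite X
  have := Fintype.ofFinite Y
  rw [Set.ncard_eq_toFinset_card', Set.ncard_eq_toFinset_card']
  refine Finset.card_mul_eq_card_mul r (fun x hx => ?_) fun y hy => ?_
  · rw [← hk x (by simpa using hx), Set.ncard_eq_toFinset_card']
    congr 1; ext; simp [Finset.bipartiteAbove]
  · rw [← hl y (by simpa using hy), Set.ncard_eq_toFinset_card']
    congr 1; ext; simp [Finset.bipartiteBelow]

end Cfsg.Lib.SuzR
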