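import Cfsg.Agent.Lib.SuzR.R3

/-!
# The model graph; subgroups of index 416 of the point stabilizer
-/

set_option autoImplicit false

namespace Cfsg.Lib.SuzR

open MulAction Finset

theorem srg_ineq {X : Type*} [DecidableEq X] {V L : Finset X} (hL : L ⊆ V) (r : X → X → Prop) [DecidableRel r]
    (hs : ∀ x y, r x y → r y x) (hi : ∀ x, ¬ r x x) {k : ℕ}
    (hc : ∀ x ∈ V, ∀ y ∈ V, (#{v ∈ V | r x v ∧ r y v} : ℤ) = 20 + 16 * (if r x y then 1 else 0) +
      80 * if x = y then 1 else 0)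
    (hk : ∀ x ∈ L, #{y ∈ L | r x y} = k) (t : ℤ) :
    #L * (k - t) ^ 2 ≤ #L * (20 * #L + 16 * k + 80) - 200 * t * #L + #V * t ^ 2 := by
  let e : X → ℤ := fun v => ∑ x ∈ L, if r x v then 1 else 0
  have h1 : ∑ v ∈ V, e v = #L * 100 := by
    rw [sum_comm, ← nsmul_eq_mul, ← sum_const]
    refine sum_congr rfl fun x hx => ?_
    simpa [hi] using hc x (hL hx) x (hL hx)
  have h2 : ∑ v ∈ V, e v ^ 2 = #L * (20 * #L + 16 * k + 80) := by
    simp only [e, sq, sum_mul_sum]
    rw [sum_comm, ← nsmul_eq_mul, ← sum_const]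
    refine sum_congr rfl fun x hx => ?_
    rw [sum_comm, sum_congr rfl (g := fun y => 20 + 16 * (if r x y then 1 else 0) + 80 * if x = y then 1 else 0)
      fun y hy => by rw [← hc x (hL hx) y (hL hy)]; simp [← ite_and, and_comm]]
    simp only [sum_add_distrib, ← mul_sum, sum_ite_eq, if_pos hx]
    simp [mul_comm, hk x hx]
  have h3 : ∑ v ∈ L, (e v - t) ^ 2 = #L * (k - t) ^ 2 := by
    rw [← nsmul_eq_mul, ← sum_const]
    refine sum_congr rfl fun x hx => ?_
    rw [← hk x hx]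
    simp only [e, sum_boole]
    rw [filter_congr fun y _ => (⟨hs _ _, hs _ _⟩ : r y x ↔ r x y)]
  calc _ = _ := h3.symm
    _ ≤ ∑ v ∈ V, (e v - t) ^ 2 := sum_le_sum_of_subset_of_nonneg hL fun _ _ _ => sq_nonneg _
    _ = _ := by
      simp only [sub_sq, sum_add_distrib, sum_sub_distrib, h2, mul_assoc, ← mul_sum, ← sum_mul, h1, sum_const,
        nsmul_eq_mul]
      ring

set_option synthInstance.maxSize 2000 in
set_option synthInstance.maxHeartbeats 200000 in
theorem arith : ∀ k < 101, ∀ l < 316, (1 + k + l) ∣ 604800 → ¬ 5 ∣ 1 + k + l → 100 ∣ (1 + k + l) * k →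
    315 ∣ (1 + k + l) * l → (∀ t ∈ ([9, 22, 27, 43, 210] : List ℤ), ((1 + k + l : ℕ) : ℤ) * ((k : ℕ) - t) ^ 2 ≤
      (1 + k + l : ℕ) * (20 * (1 + k + l : ℕ) + 16 * k + 80) - 200 * t * (1 + k + l : ℕ) + (416 : ℕ) * t ^ 2) →
    1 + k + l = 1 := by decide +kernel

variable {S H X : Type*} [Group S] [Group H] [MulAction S X] [MulAction H X]

/-- The facts about the model that are used in the comparison. -/
structure Mdl (S H : Type*) [Group S] [Group H] [MulAction S X] [MulAction H X] (a b c y1 y2 z1 z2 w1 w2 w3 : X) :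
    Prop where
  R : R3 S H a b c
  card : Nat.card H = 251596800
  oy : ∀ y ∈ orbit H b, y = b ∨ y ∈ orbit (stabilizer H b) y1 ∨ y ∈ orbit (stabilizer H b) y2
  ny1 : (orbit (stabilizer H b) y1).ncard = 100
  ny2 : (orbit (stabilizer H b) y2).ncard = 315
  ay1 : Adj S a b b y1
  ay2 : ¬ Adj S a b b y2
  cy1 : {z | z ∈ orbit H b ∧ Adj S a b b z ∧ Adj S a b y1 z}.ncard = 36
  cy2 : {z | z ∈ orbit H b ∧ Adj S a b b z ∧ Adj S a b y2 z}.ncard = 20
  cy0 : {z | z ∈ orbit H b ∧ Adj S a b b z}.ncard = 100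
  oz : ∀ y ∈ orbit H b, y ∈ orbit (stabilizer H c) z1 ∨ y ∈ orbit (stabilizer H c) z2
  nz1 : (orbit (stabilizer H c) z1).ncard = 96
  nz2 : (orbit (stabilizer H c) z2).ncard = 320
  az2 : ¬ Adj S a b c z2
  ow : ∀ y ∈ orbit H c, y = c ∨ y ∈ orbit (stabilizer H c) w1 ∨ y ∈ orbit (stabilizer H c) w2 ∨
    y ∈ orbit (stabilizer H c) w3
  nw1 : (orbit (stabilizer H c) w1).ncard = 20
  nw2 : (orbit (stabilizer H c) w2).ncard = 320
  nw3 : (orbit (stabilizer H c) w3).ncard = 1024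
  sep : ∃ z ∈ orbit H b, Adj S a b c z ∧ ¬ Adj S a b w1 z

theorem card_stab {Y : Type*} [MulAction H Y] (y : Y) : (orbit H y).ncard * Nat.card (stabilizer H y) = Nat.card H := by
  have := orb_mul (⊤ : Subgroup H) y
  rwa [orb_top, top_inf_eq, Subgroup.card_top] at this

theorem not_mem_orb_stab {x y : X} (h : (orbit (stabilizer H x) y).ncard ≠ 1) : x ∉ orbit (stabilizer H x) y :=
  fun k => h (by
    rw [← orbit_eq_iff.2 k, Set.ncard_eq_one]
    exact ⟨x, Set.eq_singleton_iff_unique_mem.2 ⟨mem_orbit_self x, fun _ ⟨g, e⟩ => e ▸ g.2⟩⟩)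

namespace Mdl

variable {a b c y1 y2 z1 z2 w1 w2 w3 : X} (M : Mdl S H a b c y1 y2 z1 z2 w1 w2 w3)
include M

theorem finH : Finite H := Nat.finite_of_card_ne_zero (by rw [M.card]; decide)

theorem adj_orb {x y z : X} (h : z ∈ orbit (stabilizer H x) y) : Adj S a b x z ↔ Adj S a b x y := by
  obtain ⟨g, hg, rfl⟩ := mem_orb.1 h
  rw [← M.R.adjH (x := x) (y := y) g, mem_stabilizer_iff.1 hg]

open Classical in
theorem common {x y : X} (hx : x ∈ orbit H b) (hy : y ∈ orbit H b) :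
    ({z | z ∈ orbit H b ∧ Adj S a b x z ∧ Adj S a b y z}.ncard : ℤ) = 20 + 16 * (if Adj S a b x y then 1 else 0) +
      80 * if x = y then 1 else 0 := by
  obtain ⟨h, rfl⟩ : ∃ h : H, h • b = x := hx
  have k : ∀ (g : H) (u v : X), {z | z ∈ orbit H b ∧ Adj S a b (g • u) z ∧ Adj S a b (g • v) z}.ncard =
      {z | z ∈ orbit H b ∧ Adj S a b u z ∧ Adj S a b v z}.ncard := fun g u v =>
    ncard_smul_eq g fun z => by rw [smul_mem_orbit_iff, M.R.adjH, M.R.adjH]
  obtain ⟨y, rfl⟩ : ∃ y', y = h • y' := ⟨h⁻¹ • y, by simp⟩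
  simp only [k, M.R.adjH, smul_left_cancel_iff]
  rcases M.oy y (smul_mem_orbit_iff.1 hy) with rfl | e | e
  · simp [M.R.irr, M.cy0]
  · have n : b ≠ y := fun q => not_mem_orb_stab (x := b) (by rw [M.ny1]; decide) (by rwa [← q] at e)
    rw [if_pos ((M.adj_orb e).2 M.ay1), if_neg n]
    obtain ⟨g, hg, rfl⟩ := mem_orb.1 e
    have := k g b y1
    rw [mem_stabilizer_iff.1 hg, M.cy1] at this
    rw [this]; rfl
  · have n : b ≠ y := fun q => not_mem_orb_stab (x := b) (by rw [M.ny2]; decide) (by rwa [← q] at e)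
    rw [if_neg (mt (M.adj_orb e).1 M.ay2), if_neg n]
    obtain ⟨g, hg, rfl⟩ := mem_orb.1 e
    have := k g b y2
    rw [mem_stabilizer_iff.1 hg, M.cy2] at this
    rw [this]; rfl

theorem card_b : Nat.card (stabilizer H b) = 604800 := by
  have := card_stab (H := H) b
  rw [M.R.hb, M.card] at this
  omega

theorem card_c : Nat.card (stabilizer H c) = 184320 := by
  have := card_stab (H := H) c
  rw [M.R.hc, M.card] at this
  omega

/-- A subgroup of index 416 fixes a point of the orbit of length 416. -/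
theorem le_stab_b {J : Subgroup H} (hJ : Nat.card J = 604800) (h5 : ¬ 5 ∣ (orbit J b).ncard) : J ≤ stabilizer H b := by
  classical
  have := M.R.fin
  have := M.finH
  have := Fintype.ofFinite X
  have sub : orbit J b ⊆ orbit H b := fun _ ⟨g, e⟩ => ⟨g, e⟩
  have i := (inv_orb J b).mono (inf_le_left : J ⊓ stabilizer H b ≤ J)
  have d1 := Inv.dvd_of_index (hJ.trans M.card_b.symm) Set.inter_subset_right
    (i.inter ((inv_orb _ y1).mono inf_le_right))
  have d2 := Inv.dvd_of_index (hJ.trans M.card_b.symm) Set.inter_subset_right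
    (i.inter ((inv_orb _ y2).mono inf_le_right))
  have n := ncard_three (L := orbit J b) (A := {b}) (fun y hy => or_assoc.2 (M.oy y (sub hy)))
    (Set.disjoint_singleton_left.2 (not_mem_orb_stab (by rw [M.ny1]; decide)))
    (Set.disjoint_singleton_left.2 (not_mem_orb_stab (by rw [M.ny2]; decide)))
    (disj_orb (by rw [M.ny1, M.ny2]; decide))
  rw [Set.inter_eq_right.2 (Set.singleton_subset_iff.2 (mem_orbit_self b)), Set.ncard_singleton] at n
  have l1 := (Set.ncard_le_ncard (Set.inter_subset_right (s := orbit J b))).trans M.ny1.le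
  have l2 := (Set.ncard_le_ncard (Set.inter_subset_right (s := orbit J b))).trans M.ny2.le
  have d : (orbit J b).ncard ∣ 604800 := ⟨_, hJ.symm.trans (orb_mul J b).symm⟩
  have q := srg_ineq (V := (orbit H b).toFinset) (L := (orbit J b).toFinset) (by simpa using sub) (Adj S a b)
    (fun _ _ => M.R.symm) M.R.irr (k := (orbit J b ∩ orbit (stabilizer H b) y1).ncard)
    (fun x hx y hy => by
      rw [← M.common (by simpa using hx) (by simpa using hy), Set.ncard_eq_toFinset_card']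
      congr 2; ext; simp; tauto)
    fun x hx => by
      obtain ⟨g, hg, rfl⟩ := mem_orb.1 (Set.mem_toFinset.1 hx)
      refine Eq.trans ?_ (ncard_smul_eq (p := fun y => y ∈ orbit J b ∧ Adj S a b (g • b) y) g
        (q := fun y => y ∈ orbit J b ∩ orbit (stabilizer H b) y1) fun y => ?_)
      · rw [Set.ncard_eq_toFinset_card']; congr 1; ext; simp
      rw [M.R.adjH]
      refine ⟨fun ⟨u, v⟩ => ?_, fun ⟨u, v⟩ => ⟨inv_orb J b g hg y u, (M.adj_orb v).2 M.ay1⟩⟩
      have u : y ∈ orbit J b := by simpa using inv_orb J b g⁻¹ (J.inv_mem hg) _ u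
      rcases M.oy y (sub u) with rfl | e | e
      exacts [absurd v (M.R.irr _), ⟨u, e⟩, absurd ((M.adj_orb e).1 v) M.ay2]
  rw [← Set.ncard_eq_toFinset_card', ← Set.ncard_eq_toFinset_card', M.R.hb] at q
  rw [M.ny1] at d1
  rw [M.ny2] at d2
  refine le_stab_of_ncard ?_
  rw [n] at d d1 d2 q h5 ⊢
  exact arith _ (by omega) _ (by omega) d h5 d1 d2 fun t _ => q t

end Mdl

end Cfsg.Lib.SuzR
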