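import Cfsg.Agent.Lib.SuzR.Gen

/-!
# Rank 3 actions on 1782 points with subdegrees 416 and 1365
-/

set_option autoImplicit false

namespace Cfsg.Lib.SuzR

open MulAction

variable {G H Ω : Type*} [Group G] [Group H] [MulAction G Ω] [MulAction H Ω]

/-- The orbital of the pair `(a, b)`. -/
def Adj (G : Type*) [Group G] [MulAction G Ω] (a b x y : Ω) : Prop := ∃ g : G, g • a = x ∧ g • b = y

theorem adj_smul {a b x y : Ω} (g : G) : Adj G a b (g • x) (g • y) ↔ Adj G a b x y :=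
  ⟨fun ⟨h, p, q⟩ => ⟨g⁻¹ * h, by rw [mul_smul, p, inv_smul_smul], by rw [mul_smul, q, inv_smul_smul]⟩,
    fun ⟨h, p, q⟩ => ⟨g * h, by rw [mul_smul, p], by rw [mul_smul, q]⟩⟩

theorem orb_top (x : Ω) : orbit (⊤ : Subgroup H) x = orbit H x :=
  Set.ext fun _ => ⟨fun ⟨g, h⟩ => ⟨g, h⟩, fun ⟨g, h⟩ => ⟨⟨g, trivial⟩, h⟩⟩

theorem smul_mem_orbit_iff {h : H} {x y : Ω} : h • y ∈ orbit H x ↔ y ∈ orbit H x :=
  ⟨fun k => by simpa using mem_orbit_of_mem_orbit h⁻¹ k, mem_orbit_of_mem_orbit h⟩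

theorem ncard_smul_eq (g : G) {p q : Ω → Prop} (h : ∀ y, p (g • y) ↔ q y) : {y | p y}.ncard = {y | q y}.ncard :=
  (Set.ncard_congr (fun y _ => g • y) (fun y hy => (h y).2 hy) (fun _ _ _ _ e => MulAction.injective g e)
    fun y hy => ⟨g⁻¹ • y, (h _).1 (by rw [smul_inv_smul]; exact hy), by simp⟩).symm

/-- `G` is transitive on 1782 points, `H` induces the stabilizer of `a`, with orbits of sizes 416 and 1365. -/
structure R3 (G H : Type*) [Group G] [Group H] [MulAction G Ω] [MulAction H Ω] (a b c : Ω) : Prop where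
  fin : Finite Ω
  card : Nat.card Ω = 1782
  tr : ∀ x : Ω, ∃ g : G, g • a = x
  sur : ∀ g : G, g • a = a → ∃ h : H, ∀ x : Ω, h • x = g • x
  act : ∀ h : H, ∃ g : G, ∀ x : Ω, h • x = g • x
  fix : ∀ h : H, h • a = a
  hb : (orbit H b).ncard = 416
  hc : (orbit H c).ncard = 1365

namespace R3

variable {a b c : Ω} (R : R3 G H a b c)
include R

theorem adjH {x y : Ω} (h : H) : Adj G a b (h • x) (h • y) ↔ Adj G a b x y := by
  obtain ⟨g, hg⟩ := R.act h
  rw [hg, hg, adj_smul]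

theorem adj_a {y : Ω} : Adj G a b a y ↔ y ∈ orbit H b := by
  refine ⟨fun ⟨g, p, q⟩ => ?_, fun ⟨h, q⟩ => ?_⟩
  · obtain ⟨h, hh⟩ := R.sur g p
    exact ⟨h, (hh b).trans q⟩
  · obtain ⟨g, hg⟩ := R.act h
    exact ⟨g, (hg a).symm.trans (R.fix h), (hg b).symm.trans q⟩

theorem a_not_mem {x : Ω} (h : (orbit H x).ncard ≠ 1) : a ∉ orbit H x := fun k => h (by
  rw [← orbit_eq_iff.2 k, Set.ncard_eq_one]
  exact ⟨a, Set.eq_singleton_iff_unique_mem.2 ⟨mem_orbit_self a, fun _ ⟨g, e⟩ => e ▸ R.fix g⟩⟩)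

theorem ab : a ∉ orbit H b := R.a_not_mem (by rw [R.hb]; decide)
theorem ac : a ∉ orbit H c := R.a_not_mem (by rw [R.hc]; decide)

theorem disj : Disjoint (orbit H b) (orbit H c) := by
  rw [← orb_top (H := H), ← orb_top (H := H)]
  exact disj_orb (by rw [orb_top, orb_top, R.hb, R.hc]; decide)

theorem tri (y : Ω) : y = a ∨ y ∈ orbit H b ∨ y ∈ orbit H c := by
  have := R.fin
  have e : insert a (orbit H b ∪ orbit H c) = Set.univ := Set.eq_of_subset_of_ncard_le (Set.subset_univ _) (by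
    rw [Set.ncard_insert_of_notMem (fun h => h.elim R.ab R.ac), Set.ncard_union_eq R.disj, R.hb, R.hc,
      Set.ncard_univ, R.card])
  exact e.ge (Set.mem_univ y)

theorem irr (x : Ω) : ¬ Adj G a b x x := fun ⟨g, p, q⟩ =>
  R.ab (MulAction.injective g (p.trans q.symm) ▸ mem_orbit_self a)

theorem val (x : Ω) : {y | Adj G a b x y}.ncard = 416 := by
  obtain ⟨g, rfl⟩ := R.tr x
  rw [ncard_smul_eq g fun y => adj_smul g, ← R.hb]
  congr 1; ext; exact R.adj_a

theorem symm {x y : Ω} (h : Adj G a b x y) : Adj G a b y x := by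
  have := R.fin
  have e := sum_ncard Set.univ Set.univ (Adj G a b) (k := 416) (l := {x | Adj G a b x a}.ncard)
    (fun x _ => by simpa using R.val x) fun y _ => by
      obtain ⟨g, rfl⟩ := R.tr y
      exact ncard_smul_eq g fun x => by simp [adj_smul]
  rw [Set.ncard_univ, R.card] at e
  have k : {x | Adj G a b x a} = orbit (⊤ : Subgroup H) b := Inv.eq_two (y := c)
    (fun g _ z hz => by have := (R.adjH g).2 hz; rwa [R.fix] at this)
    (fun z hz => by
      rw [orb_top, orb_top]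
      exact (R.tri z).resolve_left fun e => R.irr a (e ▸ hz))
    (by rw [orb_top, R.hb]; omega) (by rw [orb_top, orb_top, R.hb, R.hc]; decide)
  obtain ⟨g, rfl, rfl⟩ := h
  exact (adj_smul g).2 (k.ge (mem_orbit_self b))

theorem comm {x y : Ω} : Adj G a b x y ↔ Adj G a b y x := ⟨R.symm, R.symm⟩

theorem nadj {x : Ω} (hx : x ∈ orbit H c) : ¬ Adj G a b a x := fun h =>
  Set.disjoint_left.1 R.disj (R.adj_a.1 h) hx

theorem val_b : 1 + {y | y ∈ orbit H b ∧ Adj G a b b y}.ncard + {y | y ∈ orbit H c ∧ Adj G a b b y}.ncard = 416 := by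
  have := R.fin
  rw [← R.val b, ncard_three (L := {y | Adj G a b b y}) (A := {a}) (B := orbit H b) (C := orbit H c)
    (fun y _ => or_assoc.2 (R.tri y)) (Set.disjoint_singleton_left.2 R.ab) (Set.disjoint_singleton_left.2 R.ac) R.disj,
    Set.inter_eq_right.2 (Set.singleton_subset_iff.2
      (show a ∈ {y | Adj G a b b y} from R.symm (R.adj_a.2 (mem_orbit_self b)))), Set.ncard_singleton,
    Set.inter_comm _ (orbit H b), Set.inter_comm _ (orbit H c)]
  rfl

theorem val_c : {y | y ∈ orbit H b ∧ Adj G a b c y}.ncard + {y | y ∈ orbit H c ∧ Adj G a b c y}.ncard = 416 := by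
  have := R.fin
  rw [← R.val c, ncard_two (L := {y | Adj G a b c y}) (A := orbit H b) (B := orbit H c)
    (fun y hy => (R.tri y).resolve_left fun e => R.nadj (mem_orbit_self c) (R.symm (e ▸ hy))) R.disj]
  congr 2 <;> ext <;> exact and_comm

theorem ncard_nbr {x u v : Ω} (hx : x ∈ orbit H u) :
    {y | y ∈ orbit H v ∧ Adj G a b x y}.ncard = {y | y ∈ orbit H v ∧ Adj G a b u y}.ncard := by
  obtain ⟨h, rfl⟩ := hx
  exact ncard_smul_eq h fun y => and_congr smul_mem_orbit_iff (R.adjH h)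

theorem edges : 416 * {y | y ∈ orbit H c ∧ Adj G a b b y}.ncard = 1365 * {y | y ∈ orbit H b ∧ Adj G a b c y}.ncard := by
  have := R.fin
  rw [← R.hb, ← R.hc]
  exact sum_ncard _ _ (Adj G a b) (fun x hx => R.ncard_nbr hx) fun y hy => by
    simpa only [R.comm (y := y)] using R.ncard_nbr hy

theorem conn : {y | y ∈ orbit H c ∧ Adj G a b b y}.ncard ≠ 0 := fun h => by
  classical
  have := R.fin
  have := Fintype.ofFinite Ω
  have t : ∀ {x y z}, Adj G a b x y → Adj G a b y z → x = z ∨ Adj G a b x z := by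
    rintro _ _ z ⟨g, rfl, rfl⟩ h2
    rw [← smul_inv_smul g z] at h2 ⊢
    rw [adj_smul] at h2 ⊢
    rcases R.tri (g⁻¹ • z) with e | e | e
    · exact .inl (by rw [e])
    · exact .inr (R.adj_a.2 e)
    · exact absurd ((Set.ncard_eq_zero).1 h) (Set.Nonempty.ne_empty ⟨_, e, h2⟩)
  let f : Ω → Set Ω := fun x => insert x {y | Adj G a b x y}
  have m : ∀ {x y}, y ∈ f x → f y ⊆ f x := by
    rintro x y (rfl | hy) z hz
    · exact hz
    · rcases hz with rfl | hz
      · exact .inr hy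
      · exact (t hy hz).imp Eq.symm id
  have e : ∀ x y, f y = f x ↔ y ∈ f x := fun x y => ⟨fun e => e ▸ Set.mem_insert _ _, fun k =>
    (m k).antisymm (m (k.imp Eq.symm R.symm))⟩
  have k := Finset.card_eq_sum_card_image f Finset.univ
  rw [Finset.card_univ, ← Nat.card_eq_fintype_card, R.card] at k
  refine absurd (k ▸ Finset.dvd_sum fun s hs => ?_ : 417 ∣ 1782) (by decide)
  obtain ⟨x, -, rfl⟩ := Finset.mem_image.1 hs
  have : (f x).ncard = 417 := by
    rw [Set.ncard_insert_of_notMem (show x ∉ {y | Adj G a b x y} from R.irr x), R.val]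
  rw [← this, Set.ncard_eq_toFinset_card']
  exact dvd_of_eq (by congr 1; ext; simp [e])

/-- Transitivity on paths of length two. -/
theorem transfer (T : ∀ u ∈ orbit H b, ∀ v ∈ orbit H b, ∀ w ∈ orbit H b, v ≠ u → w ≠ u → ¬ Adj G a b u v →
      ¬ Adj G a b u w → ∃ h : H, h • u = u ∧ h • v = w)
    {x u v : Ω} (hx : x ∈ orbit H c) (hu : u ∈ orbit H b) (hv : v ∈ orbit H b) (h1 : Adj G a b x u)
    (h2 : Adj G a b x v) : ∃ h : H, h • x = x ∧ h • u = v := by
  obtain ⟨h, rfl⟩ : v ∈ orbit H u := (orbit_eq_iff.2 hu).ge hv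
  obtain ⟨g, hg⟩ := R.tr (h • u)
  have n : ∀ {y z : Ω}, Adj G a b y (h • u) → z = g⁻¹ • y → z ∈ orbit H b := fun k e =>
    R.adj_a.1 ((adj_smul g).1 (by rw [e, hg, smul_inv_smul]; exact R.symm k))
  have hx' : h • x ∈ orbit H c := smul_mem_orbit_iff.2 hx
  obtain ⟨k, k1, k2⟩ := T (g⁻¹ • a) (n (R.adj_a.2 hv) rfl) (g⁻¹ • h • x) (n ((R.adjH h).2 h1) rfl) (g⁻¹ • x) (n h2 rfl)
    (fun e => R.ac (MulAction.injective _ e ▸ hx')) (fun e => R.ac (MulAction.injective _ e ▸ hx))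
    (fun e => R.nadj hx' ((adj_smul _).1 e)) fun e => R.nadj hx ((adj_smul _).1 e)
  obtain ⟨k', hk⟩ := R.act k
  obtain ⟨l, hl⟩ := R.sur (g * k' * g⁻¹) (by rw [mul_smul, mul_smul, ← hk, k1, smul_inv_smul])
  refine ⟨l * h, ?_, ?_⟩
  · rw [mul_smul, hl, mul_smul, mul_smul, ← hk, k2, smul_inv_smul]
  · change _ = h • u
    rw [mul_smul, hl, mul_smul, mul_smul, ← hg, inv_smul_smul, ← hk, R.fix]

end R3

end Cfsg.Lib.SuzR
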